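import Cfsg.Agent.Stb.OMultD

set_option autoImplicit false

/-!
The multiplier of `PΩ` in odd dimension.
-/

namespace Cfsg.Agent.Stb

open QuadraticMap Cfsg.Agent.Orth Cfsg.Agent.OMax Subgroup Module Cfsg.Agent.ClassO Cfsg.Agent.Mult

universe u

attribute [local instance] sumNeg

section B

variable {m : ℕ} {F : Type u} [Field F]

/-- the equivalence -/
def eB (m : ℕ) (F : Type u) [Field F] : ((Fin m ⊕ Fin m → F) × F) ≃ₗ[F] (Unit ⊕ (Fin m ⊕ Fin m) → F) where
  toFun v := Sum.elim (fun _ => v.2) v.1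
  map_add' u v := by funext p; rcases p with p | p <;> rfl
  map_smul' a v := by funext p; rcases p with p | p <;> rfl
  invFun f := (fun p => f (Sum.inr p), f (Sum.inl ()))
  left_inv v := rfl
  right_inv f := by funext p; rcases p with p | p <;> rfl

/-- the quadratic form -/
noncomputable def QB (m : ℕ) (F : Type u) [Field F] : QuadraticForm F ((Fin m ⊕ Fin m → F) × F) :=
  (qfOdd m F).comp (eB m F).toLinearMap

lemma heB (v : (Fin m ⊕ Fin m → F) × F) : qfOdd m F (eB m F v) = QB m F v := rfl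

lemma ofB : OF (F := F) (fun w : F => w * w) (fun w u => 2 * (w * u)) where
  q_add _ _ := by ring
  q_smul _ _ := by rw [smul_eq_mul]; ring
  add_right _ _ _ := by ring
  smul_right _ _ _ := by rw [smul_eq_mul]; ring
  symm _ _ := by ring
  aniso h := mul_self_eq_zero.1 h

lemma olB : OL (F := F) (fun w : F => w * w) (RingHom.id F) where
  ττ _ := rfl
  q _ := rfl

lemma oqB (hm : 3 ≤ m) : OQ (QB m F) (fun w => w * w) (fun w u => 2 * (w * u)) where
  ne := idx_ne
  three := exists_two hm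
  qe p := by
    rw [← heB, qfOdd_apply]
    change (0 : F) ^ 2 + _ = 0
    rw [Finset.sum_eq_zero, add_zero, zero_pow two_ne_zero]
    intro i _
    change (eh p : (Fin m ⊕ Fin m → F) × F).1 (Sum.inl i) * (eh p : (Fin m ⊕ Fin m → F) × F).1 (Sum.inr i) = 0
    rw [eh_fst, eh_fst]
    rcases p with p | p
    · rw [if_neg (show (Sum.inr i : Fin m ⊕ Fin m) ≠ Sum.inl p from Sum.inr_ne_inl), mul_zero]
    · rw [if_neg (show (Sum.inl i : Fin m ⊕ Fin m) ≠ Sum.inr p from Sum.inl_ne_inr), zero_mul]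
  qw w := by
    rw [← heB, qfOdd_apply]
    change w ^ 2 + _ = w * w
    rw [Finset.sum_eq_zero, add_zero, pow_two]
    intro i _
    change (wh w : (Fin m ⊕ Fin m → F) × F).1 (Sum.inl i) * _ = 0
    rw [wh_fst, zero_mul]
  pol u v := by
    rw [← polar_e (eB m F) heB, polar_qfOdd]
    unfold hh
    rw [Fintype.sum_sum_type, ← Finset.sum_add_distrib, add_comm]
    congr 1
    · refine Finset.sum_congr rfl fun i _ => ?_
      change u.1 (Sum.inl i) * v.1 (Sum.inr i) + v.1 (Sum.inl i) * u.1 (Sum.inr i) =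
        u.1 (Sum.inl i) * v.1 (Sum.inr i) + u.1 (Sum.inr i) * v.1 (Sum.inl i)
      ring
    · change _ = 2 * (u.2 * v.2)
      rw [← mul_assoc]; rfl

lemma okl_self [Fintype F] (hm : 3 ≤ m) (h2 : (2 : F) ≠ 0) (hexc : ¬ (m = 3 ∧ Fintype.card F = 3)) :
    OKL (Fin m ⊕ Fin m) F F := by
  classical
  rcases small_or F with h | ⟨h3, hall⟩ | ⟨h1, -⟩
  · exact ⟨Or.inl h, Or.inl h⟩
  · refine ⟨Or.inr (exists_three ?_), Or.inr (Or.inl ⟨h3, hall⟩)⟩
    have hcard : Fintype.card F ≤ 3 := by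
      have : (Finset.univ : Finset F) ⊆ {0, 1, -1} := by
        intro a _
        simpa using hall a
      calc Fintype.card F = (Finset.univ : Finset F).card := Finset.card_univ.symm
        _ ≤ _ := Finset.card_le_card this
        _ ≤ 3 := Finset.card_le_three
    have hF2 := Fintype.one_lt_card (α := F)
    have hodd : Odd (Fintype.card F) := odd_of_two_ne_zero h2
    rw [Nat.odd_iff] at hodd
    by_contra hcon
    exact hexc ⟨by omega, by omega⟩
  · exact absurd h1 h2

/-- the multiplier of `PΩ` in odd dimension -/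
theorem mult_B [Fintype F] (hm : 3 ≤ m) (hodd : Odd (Fintype.card F)) (hexc : ¬ (m = 3 ∧ Fintype.card F = 3)) :
    Cfsg.HasCyclicSchurMultiplier (Cfsg.POmega F (Cfsg.quadFormOdd m F)) 2 := by
  have h2 : (2 : F) ≠ 0 := Cfsg.Agent.Orth.two_ne_zero_of_odd hodd
  have H := oqB (F := F) (m := m) hm
  have O := ofB (F := F)
  have N := olB (F := F)
  have R := orS H O
  have Aa := oaS H O
  have hG := ogS H O
  set i0 : Fin m ⊕ Fin m := Sum.inl ⟨m - 1, by omega⟩ with hi0
  set i1 : Fin m ⊕ Fin m := Sum.inl ⟨0, by omega⟩ with hi1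
  have x0 : ixn i0 = m - 1 := rfl
  have x1 : ixn i1 = 0 := rfl
  have k1 : i1 ≠ i0 := by intro e; rw [e] at x1; omega
  have k2 : i1 ≠ -i0 := by intro e; rw [e, ixn_neg] at x1; omega
  have hk : ∀ g, (rS (QB m F) (fun w => w * w)) g = 1 → g = 1 ∨ g = cc (yS (QB m F) (fun w => w * w)) i1 i0 (-1) := by
    intro g hg
    exact ker_L N O R Aa k1 k2 (by unfold OGen at hG; rw [hG]; exact mem_top _) hg
  have hQ' := qfOdd_nondegenerate m F h2
  have hR := RGrp_top_of_two hQ' h2
  have hH := hyp_odd F m (Fin.castLE (show 3 ≤ m by omega)) (Fin.castLE_injective _)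
  have hn : 7 ≤ finrank F ((Fin m ⊕ Fin m → F) × F) := by
    rw [(eB m F).finrank_eq, Module.finrank_fintype_fun_eq_card]; simp; omega
  have : Nonempty (Fin m ⊕ Fin m) := ⟨i0⟩
  obtain ⟨τ, hτ, hker⟩ := exists_tau H O (eB m F) heB hQ' hR hH hn
  refine out_gen H O k1 k2 hk (fun Γ _ _ σ C => sec_L N O R Aa (okl_self hm h2 hexc) (fun h => absurd h h2) hG k1 k2
    (kapS_ne H O k1 k2) C) hτ hker ?_
  refine ker_two hker hk (kap_rho O R Aa k1 k2) (fun h => h2 (kapS_ne H O k1 k2 h)) ?_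
  rw [neg_iff H O (eB m F) heB hQ' hn]
  rintro ⟨g, hg, hg1⟩
  rw [mem_Omega_iff] at hg
  obtain ⟨l, hl, hl2, -⟩ := exists_of_mem_commutator hR hg
  have h3 := det_of_reflProd _ g l hl.symm
  rw [hl2.neg_one_pow, hg1, Matrix.det_neg, Matrix.det_one, mul_one] at h3
  have h4 : (-1 : F) ^ Fintype.card (Unit ⊕ (Fin m ⊕ Fin m)) = -1 := by
    apply Odd.neg_one_pow
    simp
  rw [h4] at h3
  apply h2
  linear_combination -h3

end B

end Cfsg.Agent.Stb
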