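import Cfsg.Agent.Stb.OTypeD

set_option autoImplicit false

/-!
The multiplier of `PΩ⁺`: the rows.
-/

namespace Cfsg.Agent.Stb

open QuadraticMap Cfsg.Agent.Orth Cfsg.Agent.OMax Subgroup Module Cfsg.Agent.ClassO Cfsg.Agent.Mult

universe u

attribute [local instance] sumNeg

lemma two_or_odd (F : Type*) [Field F] [Fintype F] : ((2 : F) = 0 ∧ Even (Fintype.card F)) ∨ ((2 : F) ≠ 0 ∧ Odd (Fintype.card F)) := by
  by_cases h : (2 : F) = 0
  · exact Or.inl ⟨h, even_of_two_eq_zero h⟩
  · right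
    refine ⟨h, Nat.odd_iff.2 (FiniteField.odd_card_of_char_ne_two ?_)⟩
    intro h'
    have : CharP F 2 := by rw [← h']; exact ringChar.charP F
    exact h CharTwo.two_eq_zero

/-- odd rank -/
theorem mult_D_odd {F : Type u} [Field F] [Fintype F] (m : ℕ) (hm : 5 ≤ m) (hodd : Odd m) :
    Cfsg.HasCyclicSchurMultiplier (Cfsg.POmega F (Cfsg.quadFormPlus m F)) (Nat.gcd 4 (Fintype.card F ^ m - 1)) := by
  have H := oqD (F := F) (m := m) (by omega)
  have O := ofD (F := F)
  have R := orS H O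
  have Aa := oaS H O
  have hF1 := Fintype.one_lt_card (α := F)
  have hpow : 1 < Fintype.card F ^ m := Nat.one_lt_pow (by omega) hF1
  rcases two_or_odd F with ⟨h2, hq⟩ | ⟨h2, hq⟩
  · have hg : Nat.gcd 4 (Fintype.card F ^ m - 1) = 1 := by
      have h3 : Odd (Fintype.card F ^ m - 1) := by
        have : Even (Fintype.card F ^ m) := hq.pow_of_ne_zero (by omega)
        rw [Nat.odd_iff]; rw [Nat.even_iff] at this; omega
      have h4 : Nat.Coprime (2 ^ 2) (Fintype.card F ^ m - 1) := Nat.Coprime.pow_left 2 (Nat.coprime_two_left.2 h3)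
      exact h4
    rw [hg]
    refine out_D (by omega) (by omega) fun κ i0 i1 k1 k2 h0 hκ hk τ hker => ?_
    refine ker_triv hker hk ?_ ?_
    · intro v; rw [neg_eq_iff_add_eq_zero, ← two_smul F, h2, zero_smul]
    · rw [hκ]; exact kap_two O R Aa k1 k2 h2
  · have hmod := hq.pow (n := m)
    by_cases h4 : Fintype.card F ^ m % 4 = 1
    · have hg : Nat.gcd 4 (Fintype.card F ^ m - 1) = 4 := Nat.gcd_eq_left (by omega)
      rw [hg]
      have hq4 : Fintype.card F % 4 = 1 := by
        rw [pow_mod_four hq, if_neg (Nat.not_even_iff_odd.2 hodd)] at h4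
        exact h4
      obtain ⟨ι, hι⟩ := (isSquare_neg_one_iff (F := F) rfl hq).2 hq4
      refine out_D (by omega) (by omega) fun κ i0 i1 k1 k2 h0 hκ hk τ hker => ?_
      obtain ⟨s, hs, hs2, hs3⟩ := exists_neg_D_odd O R Aa hodd hι.symm k1 k2 h0
      rw [← hκ] at hs2
      refine ker_cyc hker hk ?_ ?_ hs3 hs2 ?_
      · rw [hκ]; exact kap_rho O R Aa k1 k2
      · intro h; rw [hκ] at h; exact h2 (kapS_ne H O k1 k2 h)
      · rw [hκ]; exact kap_sq O R Aa k1 k2
    · have h4' : Fintype.card F ^ m % 4 = 3 := by rw [Nat.odd_iff] at hmod; omega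
      have hg : Nat.gcd 4 (Fintype.card F ^ m - 1) = 2 := by
        have h5 : (Fintype.card F ^ m - 1) % 4 = 2 := by omega
        rw [Nat.gcd_rec, h5]; rfl
      rw [hg]
      refine out_D (by omega) (by omega) fun κ i0 i1 k1 k2 h0 hκ hk τ hker => ?_
      refine ker_two hker hk ?_ ?_ ?_
      · rw [hκ]; exact kap_rho O R Aa k1 k2
      · intro h; rw [hκ] at h; exact h2 (kapS_ne H O k1 k2 h)
      · have : Nonempty (Fin m ⊕ Fin m) := ⟨i0⟩
        rw [neg_iff H O (eD m F) heD (qfPlus_nondegenerate m F) (by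
          rw [(eD m F).finrank_eq, Module.finrank_fintype_fun_eq_card, Fintype.card_sum, Fintype.card_fin]; omega)]
        rw [coe_qfPlus, Cfsg.Agent.S0790.result rfl hq m (by omega)]
        exact h4

/-- even rank -/
theorem mult_D_even {F : Type u} [Field F] [Fintype F] (m : ℕ) (hm : 4 ≤ m) (heven : Even m)
    (hexc : ¬ (m = 4 ∧ Fintype.card F = 2)) :
    Cfsg.HasSchurMultiplier (Cfsg.POmega F (Cfsg.quadFormPlus m F))
      (Multiplicative (ZMod (Nat.gcd 2 (Fintype.card F ^ m - 1)) × ZMod (Nat.gcd 2 (Fintype.card F ^ m - 1)))) := by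
  have H := oqD (F := F) (m := m) (by omega)
  have O := ofD (F := F)
  have R := orS H O
  have Aa := oaS H O
  have hF1 := Fintype.one_lt_card (α := F)
  have hpow : 1 < Fintype.card F ^ m := Nat.one_lt_pow (by omega) hF1
  rcases two_or_odd F with ⟨h2, hq⟩ | ⟨h2, hq⟩
  · have hg : Nat.gcd 2 (Fintype.card F ^ m - 1) = 1 := by
      have h3 : Odd (Fintype.card F ^ m - 1) := by
        have : Even (Fintype.card F ^ m) := hq.pow_of_ne_zero (by omega)
        rw [Nat.odd_iff]; rw [Nat.even_iff] at this; omega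
      exact Nat.coprime_two_left.2 h3
    rw [hg]
    refine out_D (by omega) hexc fun κ i0 i1 k1 k2 h0 hκ hk τ hker => ?_
    have hu : Subsingleton (Multiplicative (ZMod 1 × ZMod 1)) := by
      change Subsingleton (ZMod 1 × ZMod 1)
      have : Subsingleton (ZMod 1) := ZMod.subsingleton_iff.2 rfl
      infer_instance
    have : Unique (Multiplicative (ZMod 1 × ZMod 1)) := Unique.mk' _
    refine ker_triv hker hk ?_ ?_
    · intro v; rw [neg_eq_iff_add_eq_zero, ← two_smul F, h2, zero_smul]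
    · rw [hκ]; exact kap_two O R Aa k1 k2 h2
  · have hmod := hq.pow (n := m)
    have hg : Nat.gcd 2 (Fintype.card F ^ m - 1) = 2 := Nat.gcd_eq_left (by rw [Nat.odd_iff] at hmod; omega)
    rw [hg]
    refine out_D (by omega) hexc fun κ i0 i1 k1 k2 h0 hκ hk τ hker => ?_
    obtain ⟨s, hs, hs2, hsc, hs3⟩ := exists_neg_D_even O R Aa heven
    refine ker_klein hker hk ?_ ?_ ⟨eh i0, ?_⟩ hs3 hs2 ?_ ?_
    · rw [hκ]; exact kap_rho O R Aa k1 k2
    · intro h; rw [hκ] at h; exact h2 (kapS_ne H O k1 k2 h)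
    · intro h
      have := congrFun (congrArg Prod.fst h) i0
      rw [Prod.fst_neg, Pi.neg_apply, eh_fst, if_pos rfl] at this
      apply h2
      linear_combination -this
    · rw [hκ]; exact kap_sq O R Aa k1 k2
    · rw [hκ]; exact (hsc _ (cc_T O R Aa k1 k2 (neg_ne_zero.2 one_ne_zero))).symm

end Cfsg.Agent.Stb
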