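import Cfsg.Agent.Stb.OMinus

set_option autoImplicit false

/-!
The multiplier of `PΩ⁻`.
-/

namespace Cfsg.Agent.Stb

open QuadraticMap Cfsg.Agent.Orth Cfsg.Agent.OMax Subgroup Module Cfsg.Agent.ClassO Cfsg.Agent.Mult

universe u

attribute [local instance] sumNeg

section M

variable {F : Type u} [Field F] {a b : F}

/-- the norm form is the norm of the field -/
lemma olM [Fact (Irreducible (pab a b))] : OL (F := F) (nf a b) ((tau (a := a) (b := b)).toRingHom : QL a b →+* QL a b) where
  ττ x := tau_tau x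
  q w := nf_eq w

/-- a square root of `-1` -/
lemma exists_iota [Fintype F] [Fact (Irreducible (pab a b))] (h2 : (2 : F) ≠ 0) (h4 : Fintype.card F % 4 = 3) :
    ∃ ι : QL a b, ι * ι = -1 ∧ tau ι = -ι := by
  have hfin : Finite (QL a b) := finite_QL
  let _ : Fintype (QL a b) := Fintype.ofFinite _
  have hcard := card_QL (F := F) (a := a) (b := b)
  have h5 : Fintype.card (QL a b) % 4 ≠ 3 := by
    rw [hcard, Nat.pow_mod, h4]; norm_num
  obtain ⟨ι, hι⟩ := FiniteField.isSquare_neg_one_iff.2 h5
  refine ⟨ι, hι.symm, ?_⟩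
  have h6 : tau ι * tau ι = ι * ι := by
    rw [← _root_.map_mul, ← hι, _root_.map_neg, _root_.map_one]
  rcases mul_self_eq_mul_self_iff.1 h6 with h7 | h7
  · exfalso
    have h8 := co_eq ι
    have h9 : tau ι = algebraMap F _ (co a b ι 0) + algebraMap F _ (co a b ι 1) * (algebraMap F _ a - th) := by
      conv_lhs => rw [h8]
      rw [_root_.map_add, _root_.map_mul, AlgHom.commutes, AlgHom.commutes, tau_th]
    have h10 : algebraMap F (QL a b) (co a b ι 1) * (algebraMap F _ a - 2 * th) = 0 := by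
      rw [h7] at h9
      linear_combination h8 - h9
    have h11 := (mul_eq_zero.1 h10).resolve_right (two_th_ne h2)
    rw [h11, zero_mul, add_zero] at h8
    have h12 : co a b ι 0 * co a b ι 0 = -1 := by
      apply (algebraMap F (QL a b)).injective
      rw [_root_.map_mul, ← h8, ← hι, _root_.map_neg, _root_.map_one]
    have h13 : IsSquare (-1 : F) := ⟨_, h12.symm⟩
    rw [FiniteField.isSquare_neg_one_iff] at h13
    exact h13 h4
  · exact h7

variable {m : ℕ}

variable (m a b) in
/-- the equivalence -/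
noncomputable def eM : ((Fin m ⊕ Fin m → F) × QL a b) ≃ₗ[F] ((Fin m ⊕ Fin m) ⊕ Fin 2 → F) where
  toFun v := Sum.elim v.1 (co a b v.2)
  map_add' u v := by
    funext p
    rcases p with p | p
    · rfl
    · change co a b (u.2 + v.2) p = co a b u.2 p + co a b v.2 p
      rw [_root_.map_add]; rfl
  map_smul' c v := by
    funext p
    rcases p with p | p
    · rfl
    · change co a b (c • v.2) p = c • co a b v.2 p
      rw [_root_.map_smul]; rfl
  invFun f := (fun p => f (Sum.inl p), (co a b).symm fun p => f (Sum.inr p))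
  left_inv v := by
    refine Prod.ext rfl ?_
    change (co a b).symm (co a b v.2) = v.2
    exact LinearEquiv.symm_apply_apply _ _
  right_inv f := by
    funext p
    rcases p with p | p
    · rfl
    · change co a b ((co a b).symm _) p = _
      rw [LinearEquiv.apply_symm_apply]

variable (m a b) in
/-- the quadratic form -/
noncomputable def QM : QuadraticForm F ((Fin m ⊕ Fin m → F) × QL a b) := (qfMinus m F a b).comp (eM a b m).toLinearMap

lemma heM (v : (Fin m ⊕ Fin m → F) × QL a b) : qfMinus m F a b (eM a b m v) = QM a b m v := rfl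

lemma oqM (hm : 3 ≤ m) : OQ (QM a b m) (nf a b) (tf a b) where
  ne := idx_ne
  three := exists_two hm
  qe p := by
    rw [← heM, qfMinus_apply]
    change _ + (co a b 0 0 ^ 2 + a * co a b 0 0 * co a b 0 1 + b * co a b 0 1 ^ 2) = 0
    rw [Finset.sum_eq_zero, _root_.map_zero, Pi.zero_apply, Pi.zero_apply]
    · ring
    intro i _
    change (eh p : (Fin m ⊕ Fin m → F) × QL a b).1 (Sum.inl i) * (eh p : (Fin m ⊕ Fin m → F) × QL a b).1 (Sum.inr i) = 0
    rw [eh_fst, eh_fst]
    rcases p with p | p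
    · rw [if_neg (show (Sum.inr i : Fin m ⊕ Fin m) ≠ Sum.inl p from Sum.inr_ne_inl), mul_zero]
    · rw [if_neg (show (Sum.inl i : Fin m ⊕ Fin m) ≠ Sum.inr p from Sum.inl_ne_inr), zero_mul]
  qw w := by
    rw [← heM, qfMinus_apply, Finset.sum_eq_zero, zero_add]
    · rfl
    intro i _
    change (wh w : (Fin m ⊕ Fin m → F) × QL a b).1 (Sum.inl i) * _ = 0
    rw [wh_fst, zero_mul]
  pol u v := by
    rw [← polar_e (eM a b m) heM, polar_qfMinus]
    unfold hh
    rw [Fintype.sum_sum_type, ← Finset.sum_add_distrib]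
    congr 1
    refine Finset.sum_congr rfl fun i _ => ?_
    change u.1 (Sum.inl i) * v.1 (Sum.inr i) + v.1 (Sum.inl i) * u.1 (Sum.inr i) =
      u.1 (Sum.inl i) * v.1 (Sum.inr i) + u.1 (Sum.inr i) * v.1 (Sum.inl i)
    ring

lemma okl_M [Fintype F] [Fact (Irreducible (pab a b))] : OKL (Fin m ⊕ Fin m) F (QL a b) := by
  classical
  have hfin : Finite (QL a b) := finite_QL
  let _ : Fintype (QL a b) := Fintype.ofFinite _
  have hcard := card_QL (F := F) (a := a) (b := b)
  have hF2 := Fintype.one_lt_card (α := F)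
  have h4 : 4 ≤ Fintype.card (QL a b) := by rw [hcard]; nlinarith
  constructor
  · left
    rcases small_or (QL a b) with h | ⟨-, hall⟩ | ⟨-, -, h⟩
    · exact h
    · exfalso
      have : Fintype.card (QL a b) ≤ 3 := by
        have : (Finset.univ : Finset (QL a b)) ⊆ {0, 1, -1} := by
          intro a _
          simpa using hall a
        calc Fintype.card (QL a b) = (Finset.univ : Finset (QL a b)).card := Finset.card_univ.symm
          _ ≤ _ := Finset.card_le_card this
          _ ≤ 3 := Finset.card_le_three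
      omega
    · omega
  · rcases small_or F with h | h | ⟨h1, h2, -⟩
    · exact Or.inl h
    · exact Or.inr (Or.inl h)
    · exact Or.inr (Or.inr ⟨h1, h2⟩)

/-- the multiplier of `PΩ⁻` -/
theorem mult_M [Fintype F] (hm : 3 ≤ m) (hab : ∀ z₁ z₂ : F, z₁ ^ 2 + a * z₁ * z₂ + b * z₂ ^ 2 = 0 → z₁ = 0 ∧ z₂ = 0) :
    Cfsg.HasCyclicSchurMultiplier (Cfsg.POmega F (Cfsg.quadFormMinus m F a b)) (Nat.gcd 4 (Fintype.card F ^ (m + 1) + 1)) := by
  have hirr : Fact (Irreducible (pab a b)) := ⟨pab_irred hab⟩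
  have H := oqM (F := F) (a := a) (b := b) (m := m) hm
  have O := ofM (F := F) (a := a) (b := b) hab
  have N := olM (F := F) (a := a) (b := b)
  have R := orS H O
  have Aa := oaS H O
  have hG := ogS H O
  have hfin : Finite (QL a b) := finite_QL
  have hdisc := disc_ne_zero_of_aniso hab
  set i0 : Fin m ⊕ Fin m := Sum.inl ⟨m - 1, by omega⟩ with hi0
  set i1 : Fin m ⊕ Fin m := Sum.inl ⟨0, by omega⟩ with hi1
  have x0 : ixn i0 = m - 1 := rfl
  have x1 : ixn i1 = 0 := rfl
  have k1 : i1 ≠ i0 := by intro e; rw [e] at x1; omega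
  have k2 : i1 ≠ -i0 := by intro e; rw [e, ixn_neg] at x1; omega
  have hk : ∀ g, (rS (QM a b m) (nf a b)) g = 1 → g = 1 ∨ g = cc (yS (QM a b m) (nf a b)) i1 i0 (-1) := by
    intro g hg
    exact ker_L N O R Aa k1 k2 (by unfold OGen at hG; rw [hG]; exact mem_top _) hg
  have hQ' := qfMinus_nondegenerate m F hdisc
  have hR := RGrp_minus (F := F) (show m ≠ 1 by omega) hab
  have hH := hyp_minus F m a b (Fin.castLE (show 3 ≤ m by omega)) (Fin.castLE_injective _)
  have hn : 7 ≤ finrank F ((Fin m ⊕ Fin m → F) × QL a b) := by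
    rw [(eM a b m).finrank_eq, Module.finrank_fintype_fun_eq_card]; simp; omega
  have : Nonempty (Fin m ⊕ Fin m) := ⟨i0⟩
  have hfd : FiniteDimensional F (QL a b) := (co a b).symm.finiteDimensional
  obtain ⟨τ, hτ, hker⟩ := exists_tau H O (eM a b m) heM hQ' hR hH hn
  have hτ2 : (2 : F) = 0 → ∃ t : QL a b, (tau (a := a) (b := b)).toRingHom t ≠ t := by
    intro h2
    refine ⟨th, fun e => ?_⟩
    change tau th = th at e
    rw [tau_th] at e
    have h3 : algebraMap F (QL a b) a = 0 := by
      have h20 : (2 : QL a b) = 0 := by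
        rw [show (2 : QL a b) = algebraMap F (QL a b) 2 from (map_ofNat _ 2).symm, h2, _root_.map_zero]
      linear_combination e + th * h20
    have h4 : a = 0 := (algebraMap F (QL a b)).injective (by rw [h3, _root_.map_zero])
    apply hdisc
    rw [h4]
    linear_combination -2 * b * h2
  have key : ∀ {A : Type} [CommGroup A], Nonempty (τ.ker ≃* A) → Cfsg.HasSchurMultiplier (Cfsg.POmega F (Cfsg.quadFormMinus m F a b)) A :=
    fun {A} _ e => out_gen H O k1 k2 hk (fun Γ _ _ σ C => sec_L N O R Aa okl_M hτ2 hG k1 k2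
      (kapS_ne H O k1 k2) C) hτ hker e
  have hκ1 := kap_rho O R Aa k1 k2
  have hκ2 := kap_sq O R Aa k1 k2
  have hF1 := Fintype.one_lt_card (α := F)
  rcases two_or_odd F with ⟨h2, hq⟩ | ⟨h2, hq⟩
  · have hg : Nat.gcd 4 (Fintype.card F ^ (m + 1) + 1) = 1 := by
      have h3 : Odd (Fintype.card F ^ (m + 1) + 1) := (hq.pow_of_ne_zero (by omega)).add_one
      have h4 : Nat.Coprime (2 ^ 2) (Fintype.card F ^ (m + 1) + 1) := Nat.Coprime.pow_left 2 (Nat.coprime_two_left.2 h3)
      exact h4
    rw [hg]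
    refine key (ker_triv hker hk ?_ ?_)
    · intro v; rw [neg_eq_iff_add_eq_zero, ← two_smul F, h2, zero_smul]
    · exact kap_two O R Aa k1 k2 h2
  · have hmod := hq.pow (n := m + 1)
    have hn791 := Cfsg.Agent.S0791.result (F := F) rfl hq (m + 1) (by omega) a b hab
    rw [Nat.add_sub_cancel] at hn791
    by_cases h4 : Fintype.card F ^ (m + 1) % 4 = 3
    · have hg : Nat.gcd 4 (Fintype.card F ^ (m + 1) + 1) = 4 := Nat.gcd_eq_left (by omega)
      rw [hg]
      have hmo : Even m ∧ Fintype.card F % 4 = 3 := by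
        rw [pow_mod_four hq] at h4
        by_cases h5 : Even (m + 1)
        · rw [if_pos h5] at h4; omega
        · rw [if_neg h5] at h4
          rw [Nat.not_even_iff_odd, Nat.odd_iff] at h5
          rw [Nat.even_iff]
          exact ⟨by omega, h4⟩
      obtain ⟨ι, hι, hι2⟩ := exists_iota (a := a) (b := b) h2 hmo.2
      obtain ⟨s, hs, hs2, hs3⟩ := exists_neg_L N O R Aa hmo.1 hι hι2 k1 k2
      exact key (ker_cyc hker hk hκ1 (fun h => h2 (kapS_ne H O k1 k2 h)) hs3 hs2 hκ2)
    · have hg : Nat.gcd 4 (Fintype.card F ^ (m + 1) + 1) = 2 := by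
        have h5 : (Fintype.card F ^ (m + 1) + 1) % 4 = 2 := by rw [Nat.odd_iff] at hmod; omega
        rw [Nat.gcd_rec, h5]; rfl
      rw [hg]
      refine key (ker_two hker hk hκ1 (fun h => h2 (kapS_ne H O k1 k2 h)) ?_)
      rw [neg_iff H O (eM a b m) heM hQ' hn, coe_qfMinus, hn791]
      exact h4

end M

end Cfsg.Agent.Stb
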