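import Cfsg.Agent.Stb.OMultB

set_option autoImplicit false

/-!
The quadratic extension defined by an anisotropic binary form.
-/

namespace Cfsg.Agent.Stb

open QuadraticMap Polynomial

universe u

section ext

variable {F : Type u} [Field F] (a b : F)

/-- the polynomial -/
noncomputable def pab : F[X] := X ^ 2 - C a * X + C b

lemma pab_monic : (pab a b).Monic := by
  have : pab a b = X ^ 2 + (C (-a) * X + C b) := by unfold pab; rw [C_neg]; ring
  rw [this]
  exact monic_X_pow_add (by
    refine lt_of_le_of_lt degree_linear_le ?_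
    norm_num)

lemma pab_natDegree : (pab a b).natDegree = 2 := by
  have : pab a b = C 1 * X ^ 2 + C (-a) * X + C b := by unfold pab; rw [C_neg, C_1]; ring
  rw [this]
  exact natDegree_quadratic one_ne_zero

variable {a b}

lemma pab_irred (hab : ∀ z₁ z₂ : F, z₁ ^ 2 + a * z₁ * z₂ + b * z₂ ^ 2 = 0 → z₁ = 0 ∧ z₂ = 0) : Irreducible (pab a b) := by
  rw [(pab_monic a b).irreducible_iff_roots_eq_zero_of_degree_le_three (by rw [pab_natDegree]) (by rw [pab_natDegree]; norm_num)]
  rw [Multiset.eq_zero_iff_forall_notMem]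
  intro r hr
  rw [mem_roots (pab_monic a b).ne_zero, IsRoot.def] at hr
  unfold pab at hr
  simp only [eval_add, eval_sub, eval_pow, eval_X, eval_mul, eval_C] at hr
  have := hab (-r) 1 (by linear_combination hr)
  exact one_ne_zero this.2

variable (a b) in
/-- the quadratic extension -/
abbrev QL := AdjoinRoot (pab a b)

/-- the generator -/
noncomputable abbrev th : QL a b := AdjoinRoot.root (pab a b)

lemma eval_pab {R : Type*} [CommRing R] (i : F →+* R) (x : R) : eval₂ i x (pab a b) = x ^ 2 - i a * x + i b := by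
  unfold pab
  rw [eval₂_add, eval₂_sub, eval₂_pow, eval₂_X, eval₂_mul, eval₂_X, eval₂_C, eval₂_C]

lemma th_sq : (th : QL a b) * th = algebraMap F (QL a b) a * th - algebraMap F (QL a b) b := by
  have h := AdjoinRoot.eval₂_root (pab a b)
  rw [eval_pab] at h
  change (th : QL a b) ^ 2 - algebraMap F (QL a b) a * th + algebraMap F (QL a b) b = 0 at h
  linear_combination h

/-- the conjugation -/
noncomputable def tau : QL a b →ₐ[F] QL a b :=
  AdjoinRoot.liftAlgHom (pab a b) (Algebra.ofId F _) (algebraMap F _ a - th) (by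
  rw [eval_pab]
  have := th_sq (a := a) (b := b)
  change (algebraMap F _ a - th) ^ 2 - algebraMap F (QL a b) a * (algebraMap F _ a - th) + algebraMap F _ b = 0
  linear_combination this)

lemma tau_th : tau (th : QL a b) = algebraMap F _ a - th := by
  unfold tau
  rw [AdjoinRoot.liftAlgHom_root]

lemma tau_tau (x : QL a b) : tau (tau x) = x := by
  have : (tau (a := a) (b := b)).comp tau = AlgHom.id F _ := by
    apply AdjoinRoot.algHom_ext
    rw [AlgHom.comp_apply, tau_th, map_sub, AlgHom.commutes, tau_th, AlgHom.id_apply]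
    ring
  exact DFunLike.congr_fun this x

variable (a b) in
/-- the basis -/
noncomputable def bas : Module.Basis (Fin 2) F (QL a b) :=
  ((AdjoinRoot.powerBasis' (pab_monic a b)).basis).reindex (finCongr (by
    rw [AdjoinRoot.powerBasis'_dim, pab_natDegree]))

lemma bas_zero : bas a b 0 = 1 := by
  unfold bas
  rw [Module.Basis.reindex_apply, PowerBasis.basis_eq_pow]
  change _ ^ 0 = 1
  rw [pow_zero]

lemma bas_one : bas a b 1 = th := by
  unfold bas
  rw [Module.Basis.reindex_apply, PowerBasis.basis_eq_pow, AdjoinRoot.powerBasis'_gen]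
  change _ ^ 1 = _
  rw [pow_one]

variable (a b) in
/-- coordinates -/
noncomputable def co : QL a b ≃ₗ[F] (Fin 2 → F) := (bas a b).equivFun

lemma co_eq (x : QL a b) : x = algebraMap F _ (co a b x 0) + algebraMap F _ (co a b x 1) * th := by
  have h := (bas a b).sum_equivFun x
  rw [Fin.sum_univ_two, bas_zero, bas_one] at h
  conv_lhs => rw [← h]
  rw [Algebra.smul_def, Algebra.smul_def, mul_one]; rfl

variable (a b) in
/-- the norm form -/
noncomputable def nf (w : QL a b) : F := co a b w 0 ^ 2 + a * co a b w 0 * co a b w 1 + b * co a b w 1 ^ 2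

variable (a b) in
/-- the trace form -/
noncomputable def tf (w u : QL a b) : F :=
  2 * co a b w 0 * co a b u 0 + a * (co a b w 0 * co a b u 1 + co a b w 1 * co a b u 0) + 2 * b * co a b w 1 * co a b u 1

lemma nf_eq (w : QL a b) : algebraMap F _ (nf a b w) = w * tau w := by
  have h1 := co_eq w
  have h2 : tau w = algebraMap F _ (co a b w 0) + algebraMap F _ (co a b w 1) * (algebraMap F _ a - th) := by
    conv_lhs => rw [h1]
    rw [map_add, map_mul, AlgHom.commutes, AlgHom.commutes, tau_th]
  rw [h2]
  nth_rw 2 [h1]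
  unfold nf
  rw [map_add, map_add, map_mul, map_mul, map_mul, map_pow, map_pow]
  have := th_sq (a := a) (b := b)
  linear_combination (algebraMap F (QL a b) (co a b w 1)) ^ 2 * this

lemma ofM (hab : ∀ z₁ z₂ : F, z₁ ^ 2 + a * z₁ * z₂ + b * z₂ ^ 2 = 0 → z₁ = 0 ∧ z₂ = 0) : OF (nf a b) (tf a b) where
  q_add _ _ := by unfold nf tf; rw [map_add]; simp only [Pi.add_apply]; ring
  q_smul _ _ := by unfold nf; rw [map_smul]; simp only [Pi.smul_apply, smul_eq_mul]; ring
  add_right _ _ _ := by unfold tf; rw [map_add]; simp only [Pi.add_apply]; ring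
  smul_right _ _ _ := by unfold tf; rw [map_smul]; simp only [Pi.smul_apply, smul_eq_mul]; ring
  symm _ _ := by unfold tf; ring
  aniso {w} h := by
    have h1 := hab _ _ h
    apply (co a b).injective
    rw [map_zero]
    funext i
    fin_cases i
    · exact h1.1
    · exact h1.2

/-- the field structure -/
noncomputable abbrev fld (hab : ∀ z₁ z₂ : F, z₁ ^ 2 + a * z₁ * z₂ + b * z₂ ^ 2 = 0 → z₁ = 0 ∧ z₂ = 0) : Field (QL a b) :=
  haveI : Fact (Irreducible (pab a b)) := ⟨pab_irred hab⟩
  AdjoinRoot.instField

lemma two_th_ne (h : (2 : F) ≠ 0) : algebraMap F (QL a b) a - 2 * th ≠ 0 := by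
  intro e
  have h1 : a • bas a b 0 + (-2 : F) • bas a b 1 = 0 := by
    rw [bas_zero, bas_one, Algebra.smul_def, Algebra.smul_def, mul_one, map_neg, ← e]
    rw [show (algebraMap F (QL a b)) 2 = 2 by exact map_ofNat _ 2]; ring
  have h2 := (LinearIndependent.pair_iff.1 (by
    have := (bas a b).linearIndependent
    convert this using 1
    funext i
    fin_cases i <;> rfl : LinearIndependent F ![bas a b 0, bas a b 1])) _ _ h1
  exact h (neg_eq_zero.1 h2.2)

lemma finite_QL [Finite F] : Finite (QL a b) := Finite.of_equiv _ (co a b).toEquiv.symm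

lemma card_QL [Fintype F] [Fintype (QL a b)] : Fintype.card (QL a b) = Fintype.card F ^ 2 := by
  rw [Fintype.card_congr (co a b).toEquiv, Fintype.card_fun, Fintype.card_fin]

end ext

end Cfsg.Agent.Stb
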